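import Cfsg.Agent.H35.OnT.Simple
import Cfsg.Agent.H10.Tower
import Cfsg.Agent.H98.ONanAB
import Cfsg.Agent.H70.ONSimple

/-!
# Subgroups of the presented O'Nan group given by words (helper94)

The presented O'Nan group `ON` acts faithfully on the `122760` cosets of `⟨a, …, f⟩` (helper35),
and the stabiliser of the three points `0, 1, 113129` is trivial.  So two words in the generators
give the same element iff they move the three base points in the same way (`sg`).  On top of this:
subgroups `KS img` generated by involutions given as words (`img`), certificates for "the normal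
closure of this element is everything" (`NCL`), and explicit Sylow subgroups (`syl_cyc`, `syl_tab`).
-/

set_option autoImplicit false
set_option maxRecDepth 100000

namespace Cfsg.Agent.H94.S460

open Cfsg.Agent.H35 Cfsg.Spor Cfsg.Agent.H10

/-- the same as `t1692_pd.walk`, but the point is forced at each step, so that the kernel
evaluates long walks without deep recursion -/
noncomputable def swalk : List OnL → ℕ → ℕ := fun w =>
  List.rec (motive := fun _ => ℕ → ℕ) (fun p => p)
    (fun x _ ih p => (fun q => bif Nat.ble q 0 then ih q else ih q) (t1692_pd.act p x)) w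

theorem swalk_eq (w : List OnL) (p : ℕ) : swalk w p = t1692_pd.walk w p := by
  induction w generalizing p with
  | nil => rfl
  | cons x w ih =>
    show (bif Nat.ble (t1692_pd.act p x) 0 then swalk w (t1692_pd.act p x)
      else swalk w (t1692_pd.act p x)) = t1692_pd.walk w (t1692_pd.act p x)
    rw [Bool.cond_self]
    exact ih _

theorem walk_append (u v : List OnL) (p : ℕ) :
    t1692_pd.walk (u ++ v) p = t1692_pd.walk v (t1692_pd.walk u p) := by
  induction u generalizing p with
  | nil => rfl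
  | cons x u ih => exact ih _

/-- the images of the three base points under a word -/
noncomputable def sg (w : List OnL) : List ℕ := [swalk w 0, swalk w 1, swalk w 113129]

/-- the images of the three base points under `u ++ v` -/
noncomputable def sg2 (u v : List OnL) : List ℕ :=
  [swalk v (swalk u 0), swalk v (swalk u 1), swalk v (swalk u 113129)]

theorem sg2_eq (u v : List OnL) : sg2 u v = sg (u ++ v) := by
  unfold sg2 sg
  simp only [swalk_eq, walk_append]

theorem all_append_true {α : Type} (f : α → Bool) (l1 l2 : List α) (h1 : l1.all f = true)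
    (h2 : l2.all f = true) : (l1 ++ l2).all f = true := by
  rw [List.all_append, h1, h2]
  rfl

theorem on_base : ∃ ρ : ON →* Equiv.Perm (Fin t1692_pd.N),
    (∀ (w : List OnL) (p : Fin t1692_pd.N),
      t1692_pd.walk w p.val = ((ρ (uw on_gen w))⁻¹ p).val) ∧
    (∀ g : ON, ρ g ⟨0, on_N_pos⟩ = ⟨0, on_N_pos⟩ → ρ g on_b1 = on_b1 → ρ g on_b2 = on_b2 →
      g = 1) := by
  obtain ⟨ρ, hw, hst, htr, hinj, hfin, hcG, hcH⟩ := on_struct
  have h1 := on_level1 ρ hw
  have h2 := on_level2 ρ hw
  rw [hcH] at h1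
  have hT2 : 0 < Nat.card (onHs ⊓ stabOf ρ on_b1 ⊓ stabOf ρ on_b2 : Subgroup ON) := Nat.card_pos
  have hle : Nat.card (onHs ⊓ stabOf ρ on_b1 ⊓ stabOf ρ on_b2 : Subgroup ON) ≤ 1 := by omega
  have hbot := Subgroup.eq_bot_of_card_le _ hle
  refine ⟨ρ, hw, fun g h0 hb1 hb2 => ?_⟩
  have hmem : g ∈ (onHs ⊓ stabOf ρ on_b1 ⊓ stabOf ρ on_b2 : Subgroup ON) := by
    refine ⟨⟨?_, hb1⟩, hb2⟩
    rw [hst]
    exact h0
  rw [hbot] at hmem
  exact Subgroup.mem_bot.mp hmem

theorem ev_eq_of_sg (w1 w2 : List OnL) (h : sg w1 = sg w2) : uw on_gen w1 = uw on_gen w2 := by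
  obtain ⟨ρ, hw, hb⟩ := on_base
  unfold sg at h
  simp only [List.cons.injEq, and_true, swalk_eq] at h
  obtain ⟨e0, e1, e2⟩ := h
  have key : ∀ p : Fin t1692_pd.N, t1692_pd.walk w1 p.val = t1692_pd.walk w2 p.val →
      ρ (uw on_gen w2 * (uw on_gen w1)⁻¹) p = p := by
    intro p hp
    have h3 : (ρ (uw on_gen w1))⁻¹ p = (ρ (uw on_gen w2))⁻¹ p :=
      Fin.ext (by rw [← hw w1 p, ← hw w2 p]; exact hp)
    rw [map_mul, map_inv, Equiv.Perm.mul_apply, h3]
    exact Equiv.apply_symm_apply _ _
  have h4 := hb _ (key ⟨0, on_N_pos⟩ e0) (key on_b1 e1) (key on_b2 e2)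
  exact (mul_inv_eq_one.mp h4).symm

theorem sg_eq_of_ev (w1 w2 : List OnL) (h : uw on_gen w1 = uw on_gen w2) : sg w1 = sg w2 := by
  obtain ⟨ρ, hw, _⟩ := on_base
  have k : ∀ p : Fin t1692_pd.N, t1692_pd.walk w1 p.val = t1692_pd.walk w2 p.val :=
    fun p => by rw [hw w1 p, hw w2 p, h]
  have k0 : t1692_pd.walk w1 0 = t1692_pd.walk w2 0 := k ⟨0, on_N_pos⟩
  have k1 : t1692_pd.walk w1 1 = t1692_pd.walk w2 1 := k on_b1
  have k2 : t1692_pd.walk w1 113129 = t1692_pd.walk w2 113129 := k on_b2
  unfold sg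
  simp only [swalk_eq]
  rw [k0, k1, k2]

section KLevel

variable (img : OnL → List OnL)

/-- the new generators: the elements given by the words `img x` -/
def kf : OnL → ON := fun x => uw on_gen (img x)

theorem uw_kf (w : List OnL) : uw (kf img) w = uw on_gen (w.flatMap img) := by
  induction w with
  | nil => rw [uw_nil, List.flatMap_nil, uw_nil]
  | cons x w ih => rw [uw_cons, List.flatMap_cons, uw_append, ih]; rfl

/-- the subgroup generated by the new generators -/
def KS : Subgroup ON := Subgroup.closure (Set.range (kf img))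

theorem uw_mem_KS (w : List OnL) : uw (kf img) w ∈ KS img :=
  Cfsg.Agent.H10.uw_mem_of_all _ _ w (fun x _ => Subgroup.subset_closure ⟨x, rfl⟩)

/-- two words in the new generators give the same element -/
noncomputable def eqK (w1 w2 : List OnL) : Bool :=
  decide (sg (w1.flatMap img) = sg (w2.flatMap img))

theorem eqK_sound (w1 w2 : List OnL) (h : eqK img w1 w2 = true) :
    uw (kf img) w1 = uw (kf img) w2 := by
  rw [uw_kf, uw_kf]
  exact ev_eq_of_sg _ _ (of_decide_eq_true h)

theorem eqK_complete (w1 w2 : List OnL) (h : uw (kf img) w1 = uw (kf img) w2) :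
    eqK img w1 w2 = true := by
  rw [uw_kf, uw_kf] at h
  exact decide_eq_true (sg_eq_of_ev _ _ h)

/-- the new generators are involutions (or trivial) -/
theorem kf_inv (h : on_gens.all (fun x => eqK img [x, x] []) = true) (x : OnL) :
    kf img x * kf img x = 1 := by
  have h1 := eqK_sound img _ _ (List.all_eq_true.mp h x (on_gens_all x))
  rw [uw_cons, uw_singleton, uw_nil] at h1
  exact h1

/-- the relations hold -/
theorem kf_rel (rws : List (List OnL × List OnL))
    (h : rws.all (fun r => eqK img (r.1 ++ r.2.reverse) []) = true) :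
    ∀ r ∈ rws, uw (kf img) (r.1 ++ r.2.reverse) = 1 := by
  intro r hr
  have h1 := eqK_sound img _ _ (List.all_eq_true.mp h r hr)
  rw [uw_nil] at h1
  exact h1

/-- the normal closure in `KS img` of the element given by `w` is `KS img` -/
def NCL (w : List OnL) : Prop :=
  ∀ N : Subgroup ON, N ≤ KS img → (∀ k ∈ KS img, ∀ x ∈ N, k * x * k⁻¹ ∈ N) →
    uw (kf img) w ∈ N → KS img ≤ N

/-- the product of the conjugates of `n` by the words in `cs` -/
def conjW (n : List OnL) (cs : List (List OnL)) : List OnL :=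
  cs.flatMap (fun c => c.reverse ++ (n ++ c))

variable {img}

theorem conjW_mem (hinv : ∀ x, kf img x * kf img x = 1) (N : Subgroup ON)
    (hN : ∀ k ∈ KS img, ∀ x ∈ N, k * x * k⁻¹ ∈ N) (n : List OnL) (hn : uw (kf img) n ∈ N)
    (cs : List (List OnL)) : uw (kf img) (conjW n cs) ∈ N := by
  induction cs with
  | nil =>
    have : conjW n [] = [] := rfl
    rw [this, uw_nil]
    exact N.one_mem
  | cons c cs ih =>
    have : conjW n (c :: cs) = c.reverse ++ (n ++ c) ++ conjW n cs := by
      unfold conjW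
      rw [List.flatMap_cons]
    rw [this, uw_append, uw_append, uw_append, uw_reverse _ hinv]
    refine N.mul_mem ?_ ih
    have h1 := hN (uw (kf img) c)⁻¹ ((KS img).inv_mem (uw_mem_KS img c)) _ hn
    rwa [inv_inv, mul_assoc] at h1

theorem ncl_step (hinv : ∀ x, kf img x * kf img x = 1) (n t : List OnL)
    (cs : List (List OnL)) (hchk : eqK img (conjW n cs) t = true) (ht : NCL img t) :
    NCL img n := by
  intro N hNK hN hn
  apply ht N hNK hN
  rw [← eqK_sound img _ _ hchk]
  exact conjW_mem hinv N hN n hn cs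

theorem ncl_base (hinv : ∀ x, kf img x * kf img x = 1) (e1 : List OnL)
    (cs : OnL → List OnL)
    (hchk : on_gens.all (fun x => (img x).isEmpty || eqK img (conjW e1 [cs x]) [x]) = true) :
    NCL img e1 := by
  intro N hNK hN hn
  unfold KS
  rw [Subgroup.closure_le]
  rintro _ ⟨x, rfl⟩
  have h := List.all_eq_true.mp hchk x (on_gens_all x)
  rw [Bool.or_eq_true] at h
  rcases h with h | h
  · have h1 : img x = [] := List.isEmpty_iff.mp h
    have h2 : kf img x = 1 := by
      unfold kf
      rw [h1, uw_nil]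
    rw [SetLike.mem_coe, h2]
    exact N.one_mem
  · have h2 := eqK_sound img _ _ h
    rw [uw_singleton] at h2
    rw [SetLike.mem_coe, ← h2]
    exact conjW_mem hinv N hN e1 hn [cs x]

/-- a cyclic Sylow subgroup of prime order -/
theorem syl_cyc (p : ℕ) (hp : p.Prime) (g : List OnL)
    (hgp : eqK img (List.replicate p g).flatten [] = true)
    (hg1 : eqK img g [] = false) (hncl : NCL img g) :
    ∃ P : Subgroup ON, P ≤ KS img ∧ Nat.card P = p ∧
      ∀ n ∈ P, n ≠ 1 → ∀ N : Subgroup ON, N ≤ KS img →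
        (∀ k ∈ KS img, ∀ x ∈ N, k * x * k⁻¹ ∈ N) → n ∈ N → KS img ≤ N := by
  have h1 : uw (kf img) g ^ p = 1 := by
    rw [← uw_rep, eqK_sound img _ _ hgp, uw_nil]
  have h2 : uw (kf img) g ≠ 1 := by
    intro h
    have h3 := eqK_complete img g [] (by rw [h, uw_nil])
    rw [hg1] at h3
    exact Bool.false_ne_true h3
  obtain ⟨hc, hz⟩ := Cfsg.Agent.H98.ONan.zpowers_prime_data (uw (kf img) g) p hp h1 h2
  refine ⟨Subgroup.zpowers (uw (kf img) g), ?_, hc, ?_⟩
  · rw [Subgroup.zpowers_le]
    exact uw_mem_KS img g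
  · intro n hn hn1 N hNK hN hnN
    exact hncl N hNK hN (hz n hn hn1 N hnN)

/-- a Sylow subgroup given by the list of its elements -/
theorem syl_tab (hinv : ∀ x, kf img x * kf img x = 1) (e1 : List OnL) (he1 : NCL img e1)
    (certs : List (List OnL × List (List OnL))) (sigs : List (List ℕ)) (q : ℕ)
    (hq : sigs.length = q)
    (hsig : ([] :: certs.map Prod.fst).map (fun w => sg (w.flatMap img)) = sigs)
    (hnd : sigs.Nodup)
    (hT : ([] :: certs.map Prod.fst).all (fun w1 => ([] :: certs.map Prod.fst).all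
      (fun w2 => decide (sg2 (w1.flatMap img) (w2.flatMap img) ∈ sigs))) = true)
    (hc : certs.all (fun t => eqK img (conjW t.1 t.2) e1) = true) :
    ∃ P : Subgroup ON, P ≤ KS img ∧ Nat.card P = q ∧
      ∀ n ∈ P, n ≠ 1 → ∀ N : Subgroup ON, N ≤ KS img →
        (∀ k ∈ KS img, ∀ x ∈ N, k * x * k⁻¹ ∈ N) → n ∈ N → KS img ≤ N := by
  obtain ⟨ρ, hw, hst, htr, hinj, hfin, hcG, hcH⟩ := on_struct
  set words : List (List OnL) := [] :: certs.map Prod.fst with hwords
  have hnd' : (words.map (fun w => sg (w.flatMap img))).Nodup := hsig ▸ hnd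
  have hwnd : words.Nodup := List.Nodup.of_map _ hnd'
  have hLnd : (words.map (uw (kf img))).Nodup := by
    refine List.Nodup.map_on ?_ hwnd
    intro x hx y hy hxy
    refine List.inj_on_of_nodup_map hnd' hx hy ?_
    rw [uw_kf, uw_kf] at hxy
    exact sg_eq_of_ev _ _ hxy
  have h1L : (1 : ON) ∈ words.map (uw (kf img)) := by
    rw [List.mem_map]
    exact ⟨[], List.mem_cons_self, uw_nil _⟩
  have hmul : ∀ x ∈ words.map (uw (kf img)), ∀ y ∈ words.map (uw (kf img)),
      x * y ∈ words.map (uw (kf img)) := by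
    intro x hx y hy
    rw [List.mem_map] at hx hy
    obtain ⟨w1, hw1, rfl⟩ := hx
    obtain ⟨w2, hw2, rfl⟩ := hy
    have h3 := of_decide_eq_true
      (List.all_eq_true.mp (List.all_eq_true.mp hT w1 hw1) w2 hw2)
    rw [sg2_eq, ← List.flatMap_append, ← hsig, List.mem_map] at h3
    obtain ⟨w3, hw3, h4⟩ := h3
    rw [List.mem_map]
    refine ⟨w3, hw3, ?_⟩
    rw [← uw_append, uw_kf, uw_kf]
    exact ev_eq_of_sg _ _ h4
  obtain ⟨P, hPc, hPm⟩ := Cfsg.Agent.H98.ONan.exists_subgroup_of_list _ hLnd h1L hmul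
  refine ⟨P, ?_, ?_, ?_⟩
  · intro x hx
    rw [hPm, List.mem_map] at hx
    obtain ⟨w, _, rfl⟩ := hx
    exact uw_mem_KS img w
  · rw [hPc, List.length_map, ← hq, ← hsig, List.length_map]
  · intro n hn hn1 N hNK hN hnN
    rw [hPm, List.mem_map] at hn
    obtain ⟨w, hw', rfl⟩ := hn
    rw [hwords, List.mem_cons] at hw'
    rcases hw' with rfl | hw'
    · exact absurd (uw_nil _) hn1
    · rw [List.mem_map] at hw'
      obtain ⟨t, ht, rfl⟩ := hw'
      exact ncl_step hinv t.1 e1 t.2 (List.all_eq_true.mp hc t ht) he1 N hNK hN hnN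

end KLevel

end Cfsg.Agent.H94.S460
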